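import Cfsg.Agent.Lib.Helper97.FH.Defs

set_option autoImplicit false

/-! # Feit--Higman farm: shared basics for the pieces L2 and L3 -/

namespace Cfsg.Agent.Lib.Helper64.FH

open Cfsg Cfsg.Agent.Lib.Helper6.BN Cfsg.Agent.Lib.Helper97.FH Cfsg.Agent.Lib.Helper18
open scoped Classical

variable {G : Type*} [Group G]

theorem lett_even {s t : G} {j : ℕ} (h : Even j) : lett s t j = s := if_pos h
theorem lett_odd {s t : G} {j : ℕ} (h : ¬ Even j) : lett s t j = t := if_neg h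

theorem zz_succ (s t : G) (j : ℕ) : zz s t (j + 1) = lett s t j * zz s t j := rfl

theorem zz_succ_even {s t : G} {j : ℕ} (h : Even j) : zz s t (j + 1) = s * zz s t j := by
  rw [zz_succ, lett_even h]

theorem zz_succ_odd {s t : G} {j : ℕ} (h : ¬ Even j) : zz s t (j + 1) = t * zz s t j := by
  rw [zz_succ, lett_odd h]

section

variable {P : BNPair G} {s t : G} {m : ℕ}

theorem lett_mem_S (hD : Dih P s t m) (j : ℕ) : lett s t j ∈ P.S := by
  unfold lett; split_ifs; exacts [hD.hs, hD.ht]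

theorem zz_mem_N (hD : Dih P s t m) (j : ℕ) : zz s t j ∈ P.N := by
  induction j with
  | zero => exact P.N.one_mem
  | succ j ih => exact P.N.mul_mem (S_mem_N (lett_mem_S hD j)) ih

/-- if not up then up after multiplication -/
theorem up_mul_of_not_up {l n : G} (hl : l ∈ P.S) (hn : n ∈ P.N) (h : ¬ Up P l n) :
    Up P l (l * n) := by
  rw [up_iff hl (P.N.mul_mem (S_mem_N hl) hn), len_congr (rel_sq_mul hl hn)]
  exact len_lt_of_not_up hl hn h

theorem up_even (hD : Dih P s t m) {j : ℕ} (h : Even j) :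
    Up P s (zz s t j) ↔ j % (2 * m) < m := by
  have := hD.up_iff j
  rwa [lett_even h] at this

theorem up_odd (hD : Dih P s t m) {j : ℕ} (h : ¬ Even j) :
    Up P t (zz s t j) ↔ j % (2 * m) < m := by
  have := hD.up_iff j
  rwa [lett_odd h] at this

/-- a bi-`B`-invariant function is constant on double cosets -/
theorem biInv_of_mem_dc {ψ : G → ℂ} (hψ : BiInv P.B ψ) {n g : G} (hg : g ∈ dc P n) :
    ψ g = ψ n := by
  obtain ⟨x, hx, y, hy, rfl⟩ := mem_dc.1 hg
  exact hψ x hx y hy n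

theorem biInv_of_rel {ψ : G → ℂ} (hψ : BiInv P.B ψ) {n n' : G} (h : Rel P n n') :
    ψ n = ψ n' := (biInv_of_mem_dc hψ h.mem_dc).symm

theorem BiInv.mono {H K : Subgroup G} (h : H ≤ K) {ψ : G → ℂ} (hψ : BiInv K ψ) : BiInv H ψ :=
  fun a ha b hb g => hψ a (h ha) b (h hb) g

theorem biInv_left {K : Subgroup G} {ψ : G → ℂ} (hψ : BiInv K ψ) {a : G} (ha : a ∈ K) (g : G) :
    ψ (a * g) = ψ g := by
  simpa using hψ a ha 1 K.one_mem g

theorem biInv_right {K : Subgroup G} {ψ : G → ℂ} (hψ : BiInv K ψ) {a : G} (ha : a ∈ K) (g : G) :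
    ψ (g * a) = ψ g := by
  simpa using hψ 1 K.one_mem a ha g

theorem not_mem_dc_of_mem_B {l x : G} (hl : l ∈ P.S) (hx : x ∈ P.B) : x ∉ dc P l := by
  intro h
  exact S_not_mem_B hl ((mem_dc_of_mem_B hx).1 (mem_dc_comm h))

end

theorem sum_ind [Fintype G] (A : Set G) (c : ℂ) :
    ∑ x : G, (if x ∈ A then c else 0) = (Nat.card A : ℂ) * c := by
  rw [← Finset.sum_filter, Finset.sum_const, nsmul_eq_mul, Nat.card_eq_fintype_card,
    Fintype.card_subtype]

theorem mod_one_aux {m x : ℕ} (hm : 2 ≤ m) (hx : x = 2 * m + 1) : x % (2 * m) = 1 := by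
  rw [hx, Nat.add_mod_left, Nat.mod_eq_of_lt (by omega)]

/-- values of a bi-`P_s`-invariant function along the cycle -/
theorem val_succ_even {P : BNPair G} {s t : G} {φ : G → ℂ} (hφ : BiInv (P.parabolic {s}) φ)
    {j : ℕ} (h : Even j) : φ (zz s t (j + 1)) = φ (zz s t j) := by
  rw [zz_succ_even h]
  exact biInv_left hφ (mem_parabolic_of_mem rfl) _

theorem val_refl {P : BNPair G} {s t : G} {m : ℕ} (hD : Dih P s t m) {φ : G → ℂ}
    (hφ : BiInv (P.parabolic {s}) φ) {j k : ℕ} (h : (j + k) % (2 * m) = 1) :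
    φ (zz s t j) = φ (zz s t k) := by
  have h1 := biInv_of_rel (BiInv.mono (B_le_parabolic _) hφ) (hD.mul_s j k h)
  rw [← h1]
  exact (biInv_right hφ (mem_parabolic_of_mem rfl) _).symm

theorem val_period {P : BNPair G} {s t : G} {m : ℕ} (hD : Dih P s t m) {ψ : G → ℂ}
    (hψ : BiInv P.B ψ) {j k : ℕ} (h : j ≡ k [MOD 2 * m]) :
    ψ (zz s t j) = ψ (zz s t k) :=
  biInv_of_rel hψ ((hD.rel_iff j k).2 h)

end Cfsg.Agent.Lib.Helper64.FH
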