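import Cfsg.Agent.Lib.Helper64.FHBase

set_option autoImplicit false

/-! # Feit--Higman farm: piece L2 (the operator `opA` on the levels) -/

namespace Cfsg.Agent.Lib.Helper64.FH

open Cfsg Cfsg.Agent.Lib.Helper6.BN Cfsg.Agent.Lib.Helper97.FH Cfsg.Agent.Lib.Helper18
open scoped Classical

variable {G : Type*} [Group G]

/-- averaging over a subgroup on the left -/
noncomputable def Pi [Fintype G] (K : Subgroup G) (ψ : G → ℂ) (g : G) : ℂ :=
  ∑ x : G, if x ∈ K then ψ (x * g) else 0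

theorem opA_eq [Fintype G] (K1 K2 : Subgroup G) (φ : G → ℂ) (g : G) :
    opA K1 K2 φ g = Pi K1 (Pi K2 φ) g := by
  unfold opA Pi
  refine Finset.sum_congr rfl fun x _ => ?_
  by_cases hx : x ∈ K1
  · simp [hx, mul_assoc]
  · simp [hx]

theorem Pi_left [Fintype G] (K : Subgroup G) (ψ : G → ℂ) {h : G} (hh : h ∈ K) (g : G) :
    Pi K ψ (h * g) = Pi K ψ g := by
  unfold Pi
  refine Fintype.sum_equiv (Equiv.mulRight h) _ _ fun x => ?_
  simp only [Equiv.coe_mulRight, K.mul_mem_cancel_right hh, mul_assoc]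

theorem Pi_right [Fintype G] (K : Subgroup G) (ψ : G → ℂ) {h : G} (hh : ∀ g, ψ (g * h) = ψ g)
    (g : G) : Pi K ψ (g * h) = Pi K ψ g := by
  unfold Pi
  refine Finset.sum_congr rfl fun x _ => ?_
  rw [← mul_assoc, hh]

theorem Pi_biInv [Fintype G] {K H B : Subgroup G} (hBK : B ≤ K) (hBH : B ≤ H) {φ : G → ℂ}
    (hφ : BiInv H φ) : BiInv B (Pi K φ) := by
  intro a ha b hb g
  rw [Pi_right K φ (fun g => biInv_right hφ (hBH hb) g), Pi_left K φ (hBK ha)]

section panel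

variable [Fintype G] {P : BNPair G} {l n : G} {q : ℕ} {ψ : G → ℂ}

theorem panel_up (hl : l ∈ P.S) (hq : Nat.card (dc P l) = q * Nat.card P.B)
    (hψ : BiInv P.B ψ) (hu : Up P l n) :
    Pi (P.parabolic {l}) ψ n = (Nat.card P.B : ℂ) * (ψ n + q * ψ (l * n)) := by
  have h1 : ∀ x : G, (if x ∈ P.parabolic {l} then ψ (x * n) else 0) =
      (if x ∈ (P.B : Set G) then ψ n else 0) + (if x ∈ dc P l then ψ (l * n) else 0) := by
    intro x
    by_cases hxB : x ∈ P.B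
    · have h2 : x ∉ dc P l := not_mem_dc_of_mem_B hl hxB
      have h3 : x ∈ P.parabolic {l} := B_le_parabolic _ hxB
      have h4 : x ∈ (P.B : Set G) := hxB
      rw [if_pos h3, if_pos h4, if_neg h2, add_zero]
      exact biInv_left hψ hxB n
    · have h4 : x ∉ (P.B : Set G) := hxB
      by_cases hxd : x ∈ dc P l
      · have h3 : x ∈ P.parabolic {l} := (mem_parabolic_singleton hl x).2 (Or.inr hxd)
        rw [if_pos h3, if_neg h4, if_pos hxd, zero_add]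
        exact biInv_of_mem_dc hψ (mul_mem_dc_of_up hu hxd (self_mem_dc n))
      · have h3 : x ∉ P.parabolic {l} := fun h => by
          rcases (mem_parabolic_singleton hl x).1 h with h | h
          · exact hxB h
          · exact hxd h
        rw [if_neg h3, if_neg h4, if_neg hxd, add_zero]
  unfold Pi
  rw [Finset.sum_congr rfl fun x _ => h1 x, Finset.sum_add_distrib, sum_ind, sum_ind, hq]
  have : Nat.card ((P.B : Set G)) = Nat.card P.B := rfl
  rw [this]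
  push_cast
  ring

theorem panel_down (hl : l ∈ P.S) (hn : n ∈ P.N) (hq : Nat.card (dc P l) = q * Nat.card P.B)
    (hψ : BiInv P.B ψ) (hu : ¬ Up P l n) :
    Pi (P.parabolic {l}) ψ n = (Nat.card P.B : ℂ) * (ψ (l * n) + q * ψ n) := by
  rw [← Pi_left (P.parabolic {l}) ψ (mem_parabolic_of_mem rfl : l ∈ P.parabolic {l}) n,
    panel_up hl hq hψ (up_mul_of_not_up hl hn hu), biInv_of_rel hψ (rel_sq_mul hl hn)]

end panel

/-- the purely combinatorial part of L2 -/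
theorem lev_ev_aux {m : ℕ} (hm : 2 ≤ m) (β u v : ℂ) (A Ψ Ω : ℕ → ℂ)
    (F1 : ∀ j, Even j → A (j + 1) = A j)
    (F2 : ∀ j k, (j + k) % (2 * m) = 1 → A j = A k)
    (F3 : ∀ j k, j ≡ k [MOD 2 * m] → A j = A k)
    (F3' : ∀ j k, j ≡ k [MOD 2 * m] → Ψ j = Ψ k)
    (F4 : ∀ j, ¬ Even j → j % (2 * m) < m →
      Ψ j = β * (A j + v * A (j + 1)) ∧ Ψ (j + 1) = β * (A j + v * A (j + 1)))
    (F5 : ∀ j, ¬ Even j → ¬ j % (2 * m) < m →
      Ψ j = β * (A (j + 1) + v * A j) ∧ Ψ (j + 1) = β * (A (j + 1) + v * A j))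
    (F6 : ∀ j, Even j → j % (2 * m) < m → Ω j = β * (Ψ j + u * Ψ (j + 1)))
    (F7 : ∀ j, Even j → ¬ j % (2 * m) < m → Ω j = β * (Ψ (j + 1) + u * Ψ j)) :
    (Ω (2 * 0) = β ^ 2 * ((u + 1) * (A (2 * 0) + v * A (2 * 1)))) ∧
    (∀ i, 2 * (i + 1) + 2 ≤ m →
      Ω (2 * (i + 1)) = β ^ 2 * (A (2 * i) + (u + v) * A (2 * (i + 1)) + u * v * A (2 * (i + 2)))) ∧
    (∀ h, m = 2 * (h + 1) →
      Ω (2 * (h + 1)) = β ^ 2 * ((u + 1) * (A (2 * h) + v * A (2 * (h + 1))))) ∧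
    (∀ h, m = 2 * (h + 1) + 1 →
      Ω (2 * (h + 1)) = β ^ 2 * (A (2 * h) + (v + u * (v + 1)) * A (2 * (h + 1)))) := by
  have hlt : ∀ j, j < 2 * m → j % (2 * m) = j := fun j hj => Nat.mod_eq_of_lt hj
  refine ⟨?_, ?_, ?_, ?_⟩
  · -- level zero
    have e0 : Ω 0 = β * (Ψ 0 + u * Ψ 1) := F6 0 (by decide) (by rw [hlt 0 (by omega)]; omega)
    have e1 : Ψ 1 = β * (A 1 + v * A 2) := (F4 1 (by decide) (by rw [hlt 1 (by omega)]; omega)).1
    have e2 : Ψ (2 * m - 1 + 1) = β * (A (2 * m - 1 + 1) + v * A (2 * m - 1)) :=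
      (F5 (2 * m - 1) (by rw [Nat.not_even_iff_odd]; exact ⟨m - 1, by omega⟩)
        (by rw [hlt _ (by omega)]; omega)).2
    have e3 : 2 * m - 1 + 1 = 2 * m := by omega
    rw [e3] at e2
    have e4 : Ψ (2 * m) = Ψ 0 := F3' _ _ (by simp [Nat.ModEq])
    have e5 : A (2 * m) = A 0 := F3 _ _ (by simp [Nat.ModEq])
    have e6 : A (2 * m - 1) = A 2 := F2 _ _ (mod_one_aux hm (by omega))
    have e7 : A 1 = A 0 := F1 0 (by decide)
    rw [e4, e5, e6] at e2
    rw [e7] at e1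
    show Ω 0 = β ^ 2 * ((u + 1) * (A 0 + v * A 2))
    rw [e0, e1, e2]; ring
  · intro i hi
    have ev : Even (2 * i + 2) := ⟨i + 1, by ring⟩
    have od1 : ¬ Even (2 * i + 1) := by rw [Nat.not_even_iff_odd]; exact ⟨i, rfl⟩
    have od3 : ¬ Even (2 * i + 3) := by rw [Nat.not_even_iff_odd]; exact ⟨i + 1, by ring⟩
    have e0 : Ω (2 * i + 2) = β * (Ψ (2 * i + 2) + u * Ψ (2 * i + 3)) :=
      F6 _ ev (by rw [hlt _ (by omega)]; omega)
    have e1 : Ψ (2 * i + 2) = β * (A (2 * i + 1) + v * A (2 * i + 2)) :=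
      (F4 (2 * i + 1) od1 (by rw [hlt _ (by omega)]; omega)).2
    have e2 : Ψ (2 * i + 3) = β * (A (2 * i + 3) + v * A (2 * i + 4)) :=
      (F4 (2 * i + 3) od3 (by rw [hlt _ (by omega)]; omega)).1
    have e3 : A (2 * i + 1) = A (2 * i) := F1 _ ⟨i, by ring⟩
    have e4 : A (2 * i + 3) = A (2 * i + 2) := F1 _ ev
    show Ω (2 * i + 2) = β ^ 2 * (A (2 * i) + (u + v) * A (2 * i + 2) + u * v * A (2 * i + 4))
    rw [e0, e1, e2, e3, e4]; ring
  · intro h hmh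
    have ev : Even (2 * h + 2) := ⟨h + 1, by ring⟩
    have od1 : ¬ Even (2 * h + 1) := by rw [Nat.not_even_iff_odd]; exact ⟨h, rfl⟩
    have od3 : ¬ Even (2 * h + 3) := by rw [Nat.not_even_iff_odd]; exact ⟨h + 1, by ring⟩
    have e0 : Ω (2 * h + 2) = β * (Ψ (2 * h + 3) + u * Ψ (2 * h + 2)) :=
      F7 _ ev (by rw [hlt _ (by omega)]; omega)
    have e1 : Ψ (2 * h + 2) = β * (A (2 * h + 1) + v * A (2 * h + 2)) :=
      (F4 (2 * h + 1) od1 (by rw [hlt _ (by omega)]; omega)).2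
    have e2 : Ψ (2 * h + 3) = β * (A (2 * h + 4) + v * A (2 * h + 3)) :=
      (F5 (2 * h + 3) od3 (by rw [hlt _ (by omega)]; omega)).1
    have e3 : A (2 * h + 1) = A (2 * h) := F1 _ ⟨h, by ring⟩
    have e4 : A (2 * h + 3) = A (2 * h + 2) := F1 _ ev
    have e5 : A (2 * h + 4) = A (2 * h + 1) := F2 _ _ (mod_one_aux hm (by omega))
    show Ω (2 * h + 2) = β ^ 2 * ((u + 1) * (A (2 * h) + v * A (2 * h + 2)))
    rw [e0, e1, e2, e5, e3, e4]; ring
  · intro h hmh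
    have ev : Even (2 * h + 2) := ⟨h + 1, by ring⟩
    have od1 : ¬ Even (2 * h + 1) := by rw [Nat.not_even_iff_odd]; exact ⟨h, rfl⟩
    have od3 : ¬ Even (2 * h + 3) := by rw [Nat.not_even_iff_odd]; exact ⟨h + 1, by ring⟩
    have e0 : Ω (2 * h + 2) = β * (Ψ (2 * h + 2) + u * Ψ (2 * h + 3)) :=
      F6 _ ev (by rw [hlt _ (by omega)]; omega)
    have e1 : Ψ (2 * h + 2) = β * (A (2 * h + 1) + v * A (2 * h + 2)) :=
      (F4 (2 * h + 1) od1 (by rw [hlt _ (by omega)]; omega)).2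
    have e2 : Ψ (2 * h + 3) = β * (A (2 * h + 4) + v * A (2 * h + 3)) :=
      (F5 (2 * h + 3) od3 (by rw [hlt _ (by omega)]; omega)).1
    have e3 : A (2 * h + 1) = A (2 * h) := F1 _ ⟨h, by ring⟩
    have e4 : A (2 * h + 3) = A (2 * h + 2) := F1 _ ev
    have e5 : A (2 * h + 4) = A (2 * h + 3) := F2 _ _ (mod_one_aux hm (by omega))
    show Ω (2 * h + 2) = β ^ 2 * (A (2 * h) + (v + u * (v + 1)) * A (2 * h + 2))
    rw [e0, e1, e2, e5, e3, e4]; ring

theorem lev_ev [Fintype G] (P : BNPair G) {s t : G} {m u v : ℕ} (hD : Dih P s t m)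
    (hP : Par P s t u v) (φ : G → ℂ) (hφ : BiInv (P.parabolic {s}) φ) :
    (opA (P.parabolic {s}) (P.parabolic {t}) φ (zz s t (2 * 0)) =
      (Nat.card P.B : ℂ) ^ 2 * ((u + 1) * (φ (zz s t (2 * 0)) + v * φ (zz s t (2 * 1))))) ∧
    (∀ i, 2 * (i + 1) + 2 ≤ m →
      opA (P.parabolic {s}) (P.parabolic {t}) φ (zz s t (2 * (i + 1))) =
      (Nat.card P.B : ℂ) ^ 2 * (φ (zz s t (2 * i)) + (u + v) * φ (zz s t (2 * (i + 1)))
        + u * v * φ (zz s t (2 * (i + 2))))) ∧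
    (∀ h, m = 2 * (h + 1) →
      opA (P.parabolic {s}) (P.parabolic {t}) φ (zz s t (2 * (h + 1))) =
      (Nat.card P.B : ℂ) ^ 2 * ((u + 1) * (φ (zz s t (2 * h)) + v * φ (zz s t (2 * (h + 1)))))) ∧
    (∀ h, m = 2 * (h + 1) + 1 →
      opA (P.parabolic {s}) (P.parabolic {t}) φ (zz s t (2 * (h + 1))) =
      (Nat.card P.B : ℂ) ^ 2 * (φ (zz s t (2 * h)) + (v + u * (v + 1)) * φ (zz s t (2 * (h + 1))))) := by
  have hφB : BiInv P.B φ := BiInv.mono (B_le_parabolic _) hφ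
  have hψB : BiInv P.B (Pi (P.parabolic {t}) φ) :=
    Pi_biInv (B_le_parabolic _) (B_le_parabolic _) hφ
  simp only [opA_eq]
  refine lev_ev_aux hD.two_le (Nat.card P.B : ℂ) u v (fun j => φ (zz s t j))
    (fun j => Pi (P.parabolic {t}) φ (zz s t j))
    (fun j => Pi (P.parabolic {s}) (Pi (P.parabolic {t}) φ) (zz s t j))
    (fun j hj => val_succ_even hφ hj) (fun j k h => val_refl hD hφ h)
    (fun j k h => val_period hD hφB h) (fun j k h => val_period hD hψB h) ?_ ?_ ?_ ?_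
  · intro j hj hlt
    have h1 := panel_up hD.ht hP.card_t hφB ((up_odd hD hj).2 hlt)
    rw [← zz_succ_odd hj] at h1
    refine ⟨h1, ?_⟩
    show Pi (P.parabolic {t}) φ (zz s t (j + 1)) = _
    rw [zz_succ_odd hj, Pi_left (P.parabolic {t}) φ
      (mem_parabolic_of_mem rfl : t ∈ P.parabolic {t}), ← zz_succ_odd hj]
    exact h1
  · intro j hj hlt
    have h1 := panel_down hD.ht (zz_mem_N hD j) hP.card_t hφB (fun h => hlt ((up_odd hD hj).1 h))
    rw [← zz_succ_odd hj] at h1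
    refine ⟨h1, ?_⟩
    show Pi (P.parabolic {t}) φ (zz s t (j + 1)) = _
    rw [zz_succ_odd hj, Pi_left (P.parabolic {t}) φ
      (mem_parabolic_of_mem rfl : t ∈ P.parabolic {t}), ← zz_succ_odd hj]
    exact h1
  · intro j hj hlt
    have h1 := panel_up hD.hs hP.card_s hψB ((up_even hD hj).2 hlt)
    rw [← zz_succ_even hj] at h1
    exact h1
  · intro j hj hlt
    have h1 := panel_down hD.hs (zz_mem_N hD j) hP.card_s hψB (fun h => hlt ((up_even hD hj).1 h))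
    rw [← zz_succ_even hj] at h1
    exact h1

end Cfsg.Agent.Lib.Helper64.FH
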