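import Cfsg.Agent.Lib.Helper64.FHBase

set_option autoImplicit false

/-! # Feit--Higman farm: piece L3 (summation over the levels) -/

namespace Cfsg.Agent.Lib.Helper64.FH

open Cfsg Cfsg.Agent.Lib.Helper6.BN Cfsg.Agent.Lib.Helper97.FH Cfsg.Agent.Lib.Helper18
open scoped Classical

variable {G : Type*} [Group G]

/-- alternating products `a, a b, a b a, ...` -/
def QQ (a b : ℕ) : ℕ → ℕ
  | 0 => 1
  | (j + 1) => (if Even j then a else b) * QQ a b j

theorem QQ_succ (a b j : ℕ) : QQ a b (j + 1) = (if Even j then a else b) * QQ a b j := rfl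

theorem QQ_even (a b i : ℕ) : QQ a b (2 * i) = (a * b) ^ i := by
  induction i with
  | zero => rfl
  | succ i ih =>
    have e : 2 * (i + 1) = 2 * i + 1 + 1 := by ring
    have h1 : ¬ Even (2 * i + 1) := by rw [Nat.not_even_iff_odd]; exact ⟨i, rfl⟩
    have h2 : Even (2 * i) := ⟨i, by ring⟩
    rw [e, QQ_succ, QQ_succ, if_neg h1, if_pos h2, ih]
    ring

theorem QQ_odd (a b i : ℕ) : QQ a b (2 * i + 1) = a * (a * b) ^ i := by
  have h2 : Even (2 * i) := ⟨i, by ring⟩
  rw [QQ_succ, if_pos h2, QQ_even]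

section card

variable [Finite G] {P : BNPair G} {s t : G} {m u v : ℕ}

theorem card_lett (hP : Par P s t u v) (j : ℕ) :
    Nat.card (dc P (lett s t j)) = (if Even j then u else v) * Nat.card P.B := by
  unfold lett; split_ifs; exacts [hP.card_s, hP.card_t]

theorem card_up (hD : Dih P s t m) (hP : Par P s t u v) {j : ℕ} (h : j % (2 * m) < m) :
    Nat.card (dc P (zz s t (j + 1))) = (if Even j then u else v) * Nat.card (dc P (zz s t j)) := by
  have h1 := card_dc_mul (lett_mem_S hD j) (zz_mem_N hD j) ((hD.up_iff j).2 h)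
  rw [card_lett hP, ← zz_succ] at h1
  have hpos : 0 < Nat.card P.B := Nat.card_pos
  apply Nat.eq_of_mul_eq_mul_right hpos
  rw [← h1]; ring

theorem card_down (hD : Dih P s t m) (hP : Par P s t u v) {j : ℕ} (h : ¬ j % (2 * m) < m) :
    Nat.card (dc P (zz s t j)) = (if Even j then u else v) * Nat.card (dc P (zz s t (j + 1))) := by
  have hu : ¬ Up P (lett s t j) (zz s t j) := fun h' => h ((hD.up_iff j).1 h')
  have h1 := card_dc_mul (lett_mem_S hD j)
    (P.N.mul_mem (S_mem_N (lett_mem_S hD j)) (zz_mem_N hD j))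
    (up_mul_of_not_up (lett_mem_S hD j) (zz_mem_N hD j) hu)
  rw [card_lett hP, (rel_sq_mul (lett_mem_S hD j) (zz_mem_N hD j)).dc_eq, ← zz_succ] at h1
  have hpos : 0 < Nat.card P.B := Nat.card_pos
  apply Nat.eq_of_mul_eq_mul_right hpos
  rw [← h1]; ring

theorem card_zz_up (hD : Dih P s t m) (hP : Par P s t u v) :
    ∀ j, j ≤ m → Nat.card (dc P (zz s t j)) = Nat.card P.B * QQ u v j := by
  intro j
  induction j with
  | zero =>
    intro _
    show Nat.card (dc P 1) = _
    rw [card_dc_one]; simp [QQ]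
  | succ j ih =>
    intro hj
    have hm := hD.two_le
    rw [card_up hD hP (by rw [Nat.mod_eq_of_lt (by omega)]; omega), ih (by omega), QQ_succ]
    ring

theorem card_zz_down (hD : Dih P s t m) (hP : Par P s t u v) :
    ∀ j, j ≤ m → Nat.card (dc P (zz s t (2 * m - j))) = Nat.card P.B * QQ v u j := by
  intro j
  induction j with
  | zero =>
    intro _
    have h1 : Rel P (zz s t (2 * m - 0)) (zz s t 0) := (hD.rel_iff _ _).2 (by simp [Nat.ModEq])
    rw [h1.dc_eq]
    show Nat.card (dc P 1) = _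
    rw [card_dc_one]; simp [QQ]
  | succ j ih =>
    intro hj
    have hm := hD.two_le
    have e : 2 * m - (j + 1) + 1 = 2 * m - j := by omega
    have h1 := card_down hD hP (j := 2 * m - (j + 1))
      (by rw [Nat.mod_eq_of_lt (by omega)]; omega)
    rw [e, ih (by omega)] at h1
    rw [h1, QQ_succ]
    have h2 : Even (2 * m - (j + 1)) ↔ ¬ Even j := by
      rw [Nat.even_sub (by omega), Nat.even_add_one]
      simp
    by_cases hj2 : Even j
    · rw [if_neg (fun h => (h2.1 h) hj2), if_pos hj2]; ring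
    · rw [if_pos (h2.2 hj2), if_neg hj2]; ring

theorem odd_eq (hD : Dih P s t m) (hP : Par P s t u v) (hodd : Odd m) : u = v := by
  obtain ⟨H, rfl⟩ := hodd
  have h1 := card_zz_up hD hP (2 * H + 1) le_rfl
  have h2 := card_zz_down hD hP (2 * H + 1) le_rfl
  have e : 2 * (2 * H + 1) - (2 * H + 1) = 2 * H + 1 := by omega
  rw [e, h1, QQ_odd, QQ_odd, mul_comm v u] at h2
  have hpos : 0 < Nat.card P.B := Nat.card_pos
  have h3 := Nat.eq_of_mul_eq_mul_left hpos h2
  have hu := hP.two_le_u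
  have hv := hP.two_le_v
  have h4 : 0 < (u * v) ^ H := pow_pos (Nat.mul_pos (by omega) (by omega)) _
  exact Nat.eq_of_mul_eq_mul_right h4 h3

end card

theorem sum_eq_sum_dc [Fintype G] {P : BNPair G} {s t : G} {m : ℕ} (hD : Dih P s t m)
    (φ : G → ℂ) (hφ : BiInv P.B φ) :
    ∑ g, φ g = ∑ j ∈ Finset.range (2 * m), (Nat.card (dc P (zz s t j)) : ℂ) * φ (zz s t j) := by
  have h1 : ∀ g, φ g =
      ∑ j ∈ Finset.range (2 * m), if g ∈ dc P (zz s t j) then φ (zz s t j) else 0 := by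
    intro g
    obtain ⟨n, hn, hg⟩ := bruhat_exists (P := P) g
    obtain ⟨j0, hj0, hr⟩ := hD.surj n hn
    rw [← hr.dc_eq] at hg
    rw [Finset.sum_eq_single j0]
    · rw [if_pos hg]; exact biInv_of_mem_dc hφ hg
    · intro j hj hne
      rw [if_neg]
      intro hgj
      apply hne
      have h2 : dc P (zz s t j) = dc P (zz s t j0) := by
        rw [← dc_eq_of_mem hgj, dc_eq_of_mem hg]
      have h3 : zz s t j ∈ dc P (zz s t j0) := h2 ▸ self_mem_dc _
      have h4 := bruhat_unique (zz_mem_N hD j0) (zz_mem_N hD j) h3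
      have h5 := (hD.rel_iff _ _).1 h4
      exact (Nat.ModEq.eq_of_lt_of_lt h5 hj0 (Finset.mem_range.1 hj)).symm
    · intro h; exact absurd (Finset.mem_range.2 hj0) h
  rw [Finset.sum_congr rfl fun g _ => h1 g, Finset.sum_comm]
  exact Finset.sum_congr rfl fun j _ => sum_ind _ _

theorem sum_pair (M : ℕ) (f : ℕ → ℂ) :
    ∑ j ∈ Finset.range (2 * (M + 1)), f j =
      f 0 + f 1 + ∑ k ∈ Finset.range M, (f (k + 2) + f (2 * M + 1 - k)) := by
  have e : 2 * (M + 1) = (M + M) + 1 + 1 := by ring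
  rw [e, Finset.sum_range_succ', Finset.sum_range_succ', Finset.sum_range_add,
    ← Finset.sum_range_reflect (fun k => f (M + k + 1 + 1)) M, Finset.sum_add_distrib]
  have h1 : ∑ j ∈ Finset.range M, f (M + (M - 1 - j) + 1 + 1) =
      ∑ k ∈ Finset.range M, f (2 * M + 1 - k) := by
    refine Finset.sum_congr rfl fun k hk => ?_
    have := Finset.mem_range.1 hk
    congr 1
    omega
  rw [h1]
  ring

theorem sum_two (H : ℕ) (w : ℕ → ℂ) :
    ∑ k ∈ Finset.range (2 * H), w k = ∑ i ∈ Finset.range H, (w (2 * i) + w (2 * i + 1)) := by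
  induction H with
  | zero => simp
  | succ H ih =>
    have e : 2 * (H + 1) = 2 * H + 1 + 1 := by ring
    rw [e, Finset.sum_range_succ, Finset.sum_range_succ, ih, Finset.sum_range_succ]
    ring

theorem level_sum (u v : ℕ) (A : ℕ → ℂ) (hA : ∀ i, A (2 * i + 1) = A (2 * i)) (M : ℕ) :
    ((1 : ℂ) + u) * A 0 +
      ∑ k ∈ Finset.range M, ((QQ u v (k + 2) : ℂ) + QQ v u (k + 1)) * A (k + 2) =
    (u + 1) * ∑ i ∈ Finset.range ((M + 1) / 2 + 1), (kk (M + 1) u v i : ℂ) * A (2 * i) := by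
  have hw : ∀ i, ((QQ u v (2 * i + 2) : ℂ) + QQ v u (2 * i + 1)) * A (2 * i + 2) +
      ((QQ u v (2 * i + 1 + 2) : ℂ) + QQ v u (2 * i + 1 + 1)) * A (2 * i + 1 + 2) =
      (u + 1) * (((u + 1) * v * (u * v) ^ i : ℕ) * A (2 * (i + 1))) := by
    intro i
    have e1 : 2 * i + 2 = 2 * (i + 1) := by ring
    have e2 : 2 * i + 1 + 2 = 2 * (i + 1) + 1 := by ring
    have e3 : 2 * i + 1 + 1 = 2 * (i + 1) := by ring
    rw [e2, e3, hA, QQ_even, QQ_odd, QQ_odd, QQ_even]
    push_cast
    ring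
  have hk0 : kk (M + 1) u v 0 = 1 := by simp [kk]
  rcases Nat.even_or_odd' M with ⟨H, rfl | rfl⟩
  · have e : (2 * H + 1) / 2 + 1 = H + 1 := by omega
    rw [e, Finset.sum_range_succ', sum_two, Finset.sum_congr rfl fun i _ => hw i, hk0,
      ← Finset.mul_sum, mul_add]
    have h1 : ∀ i ∈ Finset.range H, (((u + 1) * v * (u * v) ^ i : ℕ) : ℂ) * A (2 * (i + 1)) =
        (kk (2 * H + 1) u v (i + 1) : ℂ) * A (2 * (i + 1)) := by
      intro i _
      have : kk (2 * H + 1) u v (i + 1) = (u + 1) * v * (u * v) ^ i := by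
        unfold kk
        rw [if_neg (by omega), if_neg (by omega)]
        simp
      rw [this]
    rw [Finset.sum_congr rfl h1]
    push_cast
    ring
  · have e : (2 * H + 1 + 1) / 2 + 1 = H + 1 + 1 := by omega
    have hL : ∑ k ∈ Finset.range (2 * H + 1),
        ((QQ u v (k + 2) : ℂ) + QQ v u (k + 1)) * A (k + 2) =
        ∑ k ∈ Finset.range (2 * H), ((QQ u v (k + 2) : ℂ) + QQ v u (k + 1)) * A (k + 2) +
          ((QQ u v (2 * H + 2) : ℂ) + QQ v u (2 * H + 1)) * A (2 * H + 2) :=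
      Finset.sum_range_succ _ _
    have hR : ∑ i ∈ Finset.range (H + 1 + 1), (kk (2 * H + 1 + 1) u v i : ℂ) * A (2 * i) =
        ∑ i ∈ Finset.range H, (kk (2 * H + 1 + 1) u v (i + 1) : ℂ) * A (2 * (i + 1)) +
          (kk (2 * H + 1 + 1) u v (H + 1) : ℂ) * A (2 * (H + 1)) +
          (kk (2 * H + 1 + 1) u v 0 : ℂ) * A (2 * 0) := by
      rw [Finset.sum_range_succ', Finset.sum_range_succ]
    rw [e, hL, hR, sum_two, Finset.sum_congr rfl fun i _ => hw i, hk0, ← Finset.mul_sum]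
    have h1 : ∀ i ∈ Finset.range H, (((u + 1) * v * (u * v) ^ i : ℕ) : ℂ) * A (2 * (i + 1)) =
        (kk (2 * H + 1 + 1) u v (i + 1) : ℂ) * A (2 * (i + 1)) := by
      intro i hi
      have := Finset.mem_range.1 hi
      have : kk (2 * H + 1 + 1) u v (i + 1) = (u + 1) * v * (u * v) ^ i := by
        unfold kk
        rw [if_neg (by omega), if_neg (by omega)]
        simp
      rw [this]
    rw [Finset.sum_congr rfl h1]
    have h2 : kk (2 * H + 1 + 1) u v (H + 1) = v ^ (H + 1) * u ^ H := by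
      unfold kk
      rw [if_neg (by omega), if_pos (by omega)]
      simp
    have e1 : 2 * H + 2 = 2 * (H + 1) := by ring
    rw [h2, e1, QQ_even, QQ_odd]
    push_cast
    ring

theorem lev_sum [Fintype G] (P : BNPair G) {s t : G} {m u v : ℕ} (hD : Dih P s t m)
    (hP : Par P s t u v) :
    (Odd m → u = v) ∧
    ∀ φ : G → ℂ, BiInv (P.parabolic {s}) φ →
      ∑ g, φ g = (Nat.card P.B : ℂ) * (u + 1) *
        ∑ i ∈ Finset.range (m / 2 + 1), (kk m u v i : ℂ) * φ (zz s t (2 * i)) := by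
  refine ⟨odd_eq hD hP, fun φ hφ => ?_⟩
  have hφB : BiInv P.B φ := BiInv.mono (B_le_parabolic _) hφ
  have hm := hD.two_le
  obtain ⟨M, rfl⟩ : ∃ M, m = M + 1 := ⟨m - 1, by omega⟩
  rw [sum_eq_sum_dc hD φ hφB, sum_pair, mul_assoc,
    ← level_sum u v (fun j => φ (zz s t j)) (fun i => val_succ_even hφ ⟨i, by ring⟩) M]
  have h0 := card_zz_up hD hP 0 (by omega)
  have h1 := card_zz_up hD hP 1 (by omega)
  have hA1 : φ (zz s t 1) = φ (zz s t 0) := val_succ_even hφ (by decide)
  have hq0 : QQ u v 0 = 1 := rfl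
  have hq1 : QQ u v 1 = u := by simp [QQ]
  rw [h0, h1, hA1, hq0, hq1, mul_add, Finset.mul_sum]
  have h2 : ∀ k ∈ Finset.range M,
      (Nat.card (dc P (zz s t (k + 2))) : ℂ) * φ (zz s t (k + 2)) +
        (Nat.card (dc P (zz s t (2 * M + 1 - k))) : ℂ) * φ (zz s t (2 * M + 1 - k)) =
      (Nat.card P.B : ℂ) * (((QQ u v (k + 2) : ℂ) + QQ v u (k + 1)) * φ (zz s t (k + 2))) := by
    intro k hk
    have hk' := Finset.mem_range.1 hk
    have e : 2 * M + 1 - k = 2 * (M + 1) - (k + 1) := by omega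
    have h3 := card_zz_up hD hP (k + 2) (by omega)
    have h4 := card_zz_down hD hP (k + 1) (by omega)
    have h5 : φ (zz s t (2 * M + 1 - k)) = φ (zz s t (k + 2)) :=
      val_refl hD hφ (mod_one_aux hm (by omega))
    rw [h5, e, h3, h4]
    push_cast
    ring
  rw [Finset.sum_congr rfl h2]
  push_cast
  ring

end Cfsg.Agent.Lib.Helper64.FH
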